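import Cfsg.Agent.KInv.Defs
import Cfsg.Agent.Local.CharPLocal

/-! Involution centralisers in a central quotient. -/

set_option autoImplicit false

namespace Cfsg.Lib.KInv.B6

open Subgroup Cfsg.Lib.Trans Cfsg.Lib.Local
open scoped commutatorElement

variable {G B : Type*} [Group G] [Group B]

theorem cent_of_perfect {P S : Subgroup G} {a : G} (hP : ⁅P, P⁆ = P)
    (h1 : ∀ x ∈ P, ∀ k ∈ S, x * k = k * x) (h2 : ∀ k ∈ S, ∀ l ∈ S, k * l = l * k)
    (h : ∀ x ∈ P, a * x * a⁻¹ * x⁻¹ ∈ S) : P ≤ Cz a := by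
  rw [← hP, commutator_le]
  intro x hx y hy
  have a1 := h x hx
  have a2 := h y hy
  have b1 : a * x * a⁻¹ = a * x * a⁻¹ * x⁻¹ * x := by group
  have b2 : a * y * a⁻¹ = a * y * a⁻¹ * y⁻¹ * y := by group
  rw [mem_Cz, ← mul_inv_eq_iff_eq_mul, conjugate_commutatorElement, b1, b2]
  generalize a * x * a⁻¹ * x⁻¹ = k at a1
  generalize a * y * a⁻¹ * y⁻¹ = l at a2
  have c1 : k * x * (l * y) = k * l * (x * y) := by rw [mul_assoc k, ← mul_assoc x, h1 x hx l a2]; group
  have c2 : l * y * (k * x) = k * l * (y * x) := by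
    rw [mul_assoc l, ← mul_assoc y, h1 y hy k a1, h2 k a1 l a2]; group
  have c3 := h1 _ (mul_mem (mul_mem hx hy) (inv_mem (mul_mem hy hx))) _ (mul_mem a1 a2)
  calc _ = k * x * (l * y) * (l * y * (k * x))⁻¹ := by rw [commutatorElement_def]; group
    _ = k * l * (x * y * (y * x)⁻¹) * (k * l)⁻¹ := by rw [c1, c2]; group
    _ = _ := by rw [← c3, commutatorElement_def]; group

theorem exists_lift [Finite G] (f : G →* B) {P : Subgroup B} (hP : ⁅P, P⁆ = P) (hf : P ≤ f.range) :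
    ∃ K : Subgroup G, ⁅K, K⁆ = K ∧ K.map f = P ∧ ∀ L, ⁅L, L⁆ = L → L.map f ≤ P → L ≤ K := by
  obtain ⟨n, hn⟩ := exists_perfect_res (P.comap f)
  refine ⟨der (P.comap f) n, by rw [der_eq_map, ← map_commutator, hn], ?_,
    fun L h1 h2 => perfect_le_der h1 (map_le_iff_le_comap.1 h2) n⟩
  clear hn
  induction n with
  | zero => exact map_comap_eq_self hf
  | succ n ih => rw [der, map_commutator, ih, hP]

theorem comm_zpowers {x t : G} (h : x * t = t * x) : ∀ k ∈ zpowers t, x * k = k * x := by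
  rintro _ ⟨n, rfl⟩
  exact Commute.zpow_right h n

theorem comm_zpowers' (t : G) : ∀ k ∈ zpowers t, ∀ l ∈ zpowers t, k * l = l * k := by
  rintro _ ⟨n, rfl⟩ _ ⟨m, rfl⟩
  exact Commute.zpow_zpow_self t n m

theorem lay_of [Finite G] {H K : Subgroup G} (π : H →* B) (hs : Function.Surjective π) {t : G}
    (hk : ∀ x, π x = 1 → (x : G) ∈ zpowers t) (ht : ∀ x ∈ H, x * t = t * x) {s : H} (hKH : K ≤ H)
    (hq : IsQuasisimple K) (hK : K ≤ Cz (s : G))
    (hP : ∀ P ≤ H, P ≤ Cz (s : G) → ⁅P, P⁆ = P → P ≤ K) : Lay 1 (Cz (π s)) := by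
  have : Finite B := Finite.of_surjective π hs
  refine lay_one (L := (K.subgroupOf H).map π) ?_ ?_ fun P h1 h2 => ?_
  · rintro _ ⟨x, hx, rfl⟩
    rw [mem_Cz, ← map_mul, ← map_mul]
    exact congrArg π (Subtype.ext (mem_Cz.1 (hK hx)))
  · by_cases e : (K.subgroupOf H).map π = ⊥
    · rw [e]; exact Or.inr inferInstance
    · exact Or.inl (IsQuasisimple.map_of_ne_bot ((isQuasisimple_subgroupOf_iff hKH).2 hq) π e)
  · obtain ⟨L, a, rfl, -⟩ := exists_lift π h2 (MonoidHom.range_eq_top.2 hs ▸ le_top)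
    have b := perfect_map a H.subtype
    refine map_mono (map_le_iff_le_comap.1 (hP _ (map_subtype_le L) (cent_of_perfect b
      (fun x hx => comm_zpowers (ht x (map_subtype_le L hx))) (comm_zpowers' t) ?_) b))
    rintro _ ⟨x, hx, rfl⟩
    refine hk (s * x * s⁻¹ * x⁻¹) ?_
    rw [map_mul, map_mul, map_mul, mem_Cz.1 (h1 ⟨x, hx, rfl⟩), map_inv, map_inv]
    group

theorem isPGroup_zpowers_sq {t : G} (h : t * t = 1) : IsPGroup 2 (zpowers t) := by
  rintro ⟨_, k, rfl⟩
  refine ⟨1, Subtype.ext ?_⟩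
  show (t ^ k) ^ (2 ^ 1) = 1
  rw [← zpow_natCast, ← zpow_mul, mul_comm, zpow_mul, zpow_natCast, pow_one, sq, h, one_zpow]

theorem ch2_quot [Finite G] (π : G →* B) (hs : Function.Surjective π) {t w : G}
    (hk : ∀ x, π x = 1 → x ∈ zpowers t) (ht : ∀ x, x * t = t * x) (h2 : t * t = 1) (hw : w * w = 1)
    (h : CharP 2 (Cz w)) : haveI := Finite.of_surjective π hs; Ch2 (π w) := by
  have : Finite B := Finite.of_surjective π hs
  have : Fact (Nat.Prime 2) := ⟨Nat.prime_two⟩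
  have hC : ((Cz (π w)).comap π).map π = Cz (π w) := map_comap_eq_self_of_surjective hs _
  have hz : zpowers (π w) ≤ Cz (π w) := zpowers_le.2 (mem_Cz.2 rfl)
  have hD : CharP 2 ((Cz (π w)).comap π) := by
    refine h.of_centralizer_le (fun x hx => ?_) (inf_le_right.trans (centralizer_le ?_))
    · rw [mem_comap, mem_Cz, ← map_mul, ← map_mul, mem_Cz.1 hx]
    · refine Set.singleton_subset_iff.2 (le_pCoreOf (N := (zpowers (π w)).comap π) (comap_mono hz)
        ((comap_mono ?_).trans (le_normalizer_comap π)) ((isPGroup_zpowers_sq (by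
          rw [← map_mul, hw, map_one])).comap_of_ker_isPGroup π ((isPGroup_zpowers_sq h2).to_le hk))
        (mem_zpowers _))
      exact fun x hx => centralizer_le_normalizer _ fun k hk =>
        (comm_zpowers (mem_Cz.1 hx).symm k hk).symm
  generalize (Cz (π w)).comap π = D at hC hD
  refine charP_iff_genFitting.1 ?_
  rw [← hC]
  refine charP_of_le_pCoreOf (R := (pCoreOf 2 D).map π) (le_pCoreOf (map_mono (pCoreOf_le D))
    ((map_mono (le_normalizer_pCoreOf D)).trans (le_normalizer_map π)) ((isPGroup_pCoreOf D).map π)) ?_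
  refine ((hD.isPGroup_of_commutator_le (U := zpowers t)
    (E := D ⊓ (centralizer ((pCoreOf 2 D).map π : Set B)).comap π) inf_le_left
    (commutator_le.2 fun r hr x hx => hk _ ?_)
    fun x _ k hk => (comm_zpowers (ht x) k hk).symm).map π).to_le ?_
  · rw [map_commutatorElement, commutatorElement_eq_one_iff_mul_comm]
    exact hx.2 _ ⟨r, hr, rfl⟩
  · rintro _ ⟨⟨x, hx, rfl⟩, h1⟩
    exact ⟨x, ⟨hx, h1⟩, rfl⟩

end Cfsg.Lib.KInv.B6
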