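import Cfsg.Agent.Chev.FoldTwE6
import Cfsg.Agent.S1054
import Cfsg.Agent.S1062
import Cfsg.Agent.S1066
import Cfsg.Agent.S1070
import Cfsg.Agent.S2130

/-! The field automorphism of `²E₆(2)` and its fixed points `F₄(2)`. -/

set_option autoImplicit false

namespace Cfsg.Lib.KInv.B6

open Cfsg.Lie Cfsg.Lib.Chev Cfsg.Lib.Chev.Core

variable {K : Type*} [Field K] [Fintype K]

theorem card_F4 : Nat.card (chevF4.group (ZMod 2)) = 3311126603366400 :=
  (Agent.S1062.result (q := 2) (ZMod.card 2)).trans (by norm_num)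

theorem card_twE6 (hK : Fintype.card K = 4) :
    Nat.card (twistedE6 K 2) = 76532479683774853939200 := by
  have := Agent.S1066.result (K := K) (q := 2) Nat.prime_two.isPrimePow hK
  norm_num at this
  omega

theorem card_out_twE6 (hK : Fintype.card K = 4) : Nat.card (Out (twistedE6 K 2)) = 6 :=
  have : CharP K 2 := charP_of_card_eq_prime_pow (p := 2) (f := 2) hK
  Agent.S2130.result (K := K) 2 1 hK le_rfl

theorem exists_σ (hK : Fintype.card K = 4) : ∃ σ : MulAut (twistedE6 K 2), σ * σ = 1 ∧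
    ∃ M : Subgroup (twistedE6 K 2), (∀ g, g ∈ M ↔ σ g = g) ∧
      Nonempty (M ≃* chevF4.group (ZMod 2)) := by
  classical
  obtain ⟨f, hf, hq, hG⟩ := exists_twE6 (K := K) (q := 2) hK
  have : CharP K 2 := charP_of_card_eq_prime_pow (p := 2) (f := 2) hK
  let ι := ZMod.castHom (dvd_refl 2) K
  have hι : ∀ t, f (ι t) = ι t := fun t => by rw [hq, ← map_pow, ZMod.pow_card]
  have hfix : ∀ t, f t = t ↔ t ∈ Set.range ι := fun t => ⟨fun e => by
    rw [hq, sq] at e
    rcases IsIdempotentElem.iff_eq_zero_or_one.1 e with rfl | rfl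
    exacts [⟨0, map_zero ι⟩, ⟨1, map_one ι⟩], by rintro ⟨s, rfl⟩; exact hι s⟩
  obtain ⟨ψ, h1, h2, h3, -⟩ := exists_F4_le_twE6 hf ι hι
  let φ : K ≃+* K := RingEquiv.ofRingHom f f (RingHom.ext hf) (RingHom.ext hf)
  let σ := certE6.twAut (endE6 f hf) (clE6 f hf _) hG 1 φ
  have hσ : ∀ g, (σ g : GL chevE6.Idx K) = mapGL chevE6 f g := fun g => by
    refine (certE6.coe_twAut _ _ hG _ _ _).trans ?_
    rw [OneMemClass.coe_one, map_one, one_mul, inv_one, mul_one]
    rfl
  have hle : ψ.range ≤ twistedE6 K 2 := h2.trans hG.le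
  refine ⟨σ, MulEquiv.ext fun g => Subtype.ext ?_, ψ.range.subgroupOf _, fun g => ⟨fun hg =>
    Subtype.ext ((hσ g).trans (h3 _ hg)), fun hg => ?_⟩,
    ⟨(Subgroup.subgroupOfEquivOfLe hle).trans (MonoidHom.ofInjective h1).symm⟩⟩
  · rw [MulAut.mul_apply, hσ, hσ, mapGL_comp, show f.comp f = RingHom.id K from RingHom.ext hf]
    rfl
  let E0 := certE6.endHom (endE6 (RingHom.id (ZMod 2)) fun _ => rfl)
  let M0 := E0.eqLocus (MonoidHom.id _)
  obtain ⟨e0⟩ := nonempty_fixed_E6 (M := M0) fun _ => Iff.rfl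
  have hc : (certE6.endHom (endE6 f hf)).comp (mapGroup chevE6 ι) = (mapGroup chevE6 ι).comp E0 := by
    have m : ∀ r t, mapGroup chevE6 ι (xG chevE6 (ZMod 2) r t) = xG chevE6 K r (ι t) :=
      fun r t => Subtype.ext (certE6.mapGL_xGL ι rootE6 r t)
    refine certE6.hom_ext_simple rootE6 (fun i t => ?_) fun i t => ?_ <;>
      rw [MonoidHom.comp_apply, MonoidHom.comp_apply, m]
    · rw [(endHom_E6 hf i _).1, (endHom_E6 _ i _).1, m, hι]; rfl
    · rw [(endHom_E6 hf i _).2, (endHom_E6 _ i _).2, m, hι]; rfl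
  have key : ∀ g ∈ twistedE6 K 2, mapGL chevE6 f g = g →
      g ∈ (M0.map (mapGroup chevE6 ι)).map (chevE6.group K).subtype := fun g g1 g2 => by
    obtain ⟨g0, g3, rfl⟩ := (certE6.fieldTwist_F rootE6 f ι hfix fun _ =>
      ⟨1, Subsingleton.elim _ _⟩).le ((certE6.mem_fieldTwist_F rootE6 f).2
        ⟨certE6.tw_le (endE6 f hf) (clE6 f hf _) hG g1, g2⟩)
    refine ⟨_, ⟨⟨g0, g3⟩, mapGroup_injective ι ?_, rfl⟩, rfl⟩
    exact (DFunLike.congr_fun hc _).symm.trans (Subtype.ext ((twE6 f hf).G1_le_F (hG.ge g1)).2)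
  have : Finite (GL chevE6.Idx K) := inferInstance
  have e := Subgroup.eq_of_le_of_card_ge (fun g hg => key g (hle hg) (h3 g hg) : ψ.range ≤ _) (by
    rw [Subgroup.card_map_of_injective (Subgroup.subtype_injective _),
      Subgroup.card_map_of_injective (mapGroup_injective ι), Nat.card_congr e0.toEquiv,
      Nat.card_congr (MonoidHom.ofInjective h1).toEquiv])
  exact e.ge (key g g.2 ((hσ g).symm.trans (congrArg Subtype.val hg)))

end Cfsg.Lib.KInv.B6
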